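import Cfsg.Agent.Lib.SchurAlt.ThreeCycle
import Mathlib.GroupTheory.Perm.Cycle.Type
import Mathlib.GroupTheory.Transfer

/-!
A stem extension of the alternating group of degree at least five, other than six and seven, has
kernel of order at most two.
-/

set_option autoImplicit false

namespace Cfsg.Agent.Lib.SchurAlt

open Equiv Equiv.Perm
open scoped commutatorElement

universe v

section Elementary

variable {α : Type*} [DecidableEq α]

/-- A three-cycle is a commutator of two three-cycles, given two further points. -/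
theorem tri_eq_commutator {a b c d e : α} (hab : a ≠ b) (hac : a ≠ c) (had : a ≠ d) (hae : a ≠ e)
    (hbc : b ≠ c) (hbd : b ≠ d) (hbe : b ≠ e) (hcd : c ≠ d) (hce : c ≠ e) (hde : d ≠ e) :
    tri a b c = tri a b d * tri a c e * (tri a b d)⁻¹ * (tri a c e)⁻¹ := by
  rw [conj_tri, tri_inv hac hae hce, tri_apply_first hab hbd,
    tri_apply_of_ne hac.symm hbc.symm hcd, tri_apply_of_ne hae.symm hbe.symm hde.symm]
  refine Equiv.ext fun x => ?_
  rw [Perm.mul_apply]
  by_cases ha : x = a
  · rw [ha, tri_apply_first hab hbc, tri_apply_first hae hce.symm, tri_apply_third hbe hce]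
  by_cases hb : x = b
  · rw [hb, tri_apply_second, tri_apply_of_ne hab.symm hbe hbc, tri_apply_first hbc hce]
  by_cases hc : x = c
  · rw [hc, tri_apply_third hac hbc, tri_apply_third hac hce.symm, tri_apply_of_ne hab hac hae]
  by_cases he : x = e
  · rw [tri_apply_of_ne ha hb hc, he, tri_apply_second, tri_apply_second]
  rw [tri_apply_of_ne ha hb hc, tri_apply_of_ne ha he hc, tri_apply_of_ne hb hc he]

end Elementary

variable {n : ℕ} {Γ : Type v} [Group Γ] {π : Γ →* Perm (Fin n)}

theorem exists_preimage (hrange : π.range = alternatingGroup (Fin n)) {g : Perm (Fin n)}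
    (hg : g ∈ alternatingGroup (Fin n)) : ∃ x, π x = g :=
  MonoidHom.mem_range.mp (hrange ▸ hg)

/-- Elements over the centralizer of `t₀` centralise a lift of `t₀`. -/
theorem commute_lift (h6 : n ≠ 6) (h7 : n ≠ 7)
    (hrange : π.range = alternatingGroup (Fin n)) (hker : π.ker ≤ Subgroup.center Γ)
    {k a c : Fin n} (hka : k ≠ a) (hkc : k ≠ c) (hac : a ≠ c) {T : Γ} (hT : π T = tri k a c)
    {x : Γ} (hx : π x * tri k a c = tri k a c * π x) : x * T = T * x := by
  set C := Subgroup.centralizer ({T} : Set Γ)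
  have hmem : ∀ {y}, y ∈ C ↔ y * T = T * y := fun {y} => Subgroup.mem_centralizer_singleton_iff
  have hC : ∀ {y z}, π y = π z → z ∈ C → y ∈ C := by
    intro y z he hz
    have h1 : z⁻¹ * y ∈ C := hmem.mpr
      (Subgroup.mem_center_iff.mp (hker (by rw [MonoidHom.mem_ker, map_mul, map_inv, he,
        inv_mul_cancel])) T).symm
    simpa using C.mul_mem hz h1
  set D := C.map π
  -- three-cycles away from the support
  have h3 : ∀ u : Perm (Fin n), IsThreeCycle u → u k = k → u a = a → u c = c → u ∈ D := by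
    intro u hu huk hua huc
    obtain ⟨p, hp⟩ : ∃ p, u p ≠ p := by
      by_contra hno
      push Not at hno
      exact hu.ne_one (Equiv.ext hno)
    obtain ⟨q, r, hqp, hrp, hqr, rfl⟩ := exists_tri_of_moves hu hp
    have hq : tri q p r q ≠ q := by rw [tri_apply_first hqp hrp.symm]; exact hqp.symm
    have hr : tri q p r r ≠ r := by rw [tri_apply_third hqr hrp.symm]; exact hqr
    have hne : ∀ y, tri q p r y ≠ y → y ≠ k ∧ y ≠ a ∧ y ≠ c := fun y hy =>
      ⟨fun e => hy (e ▸ huk), fun e => hy (e ▸ hua), fun e => hy (e ▸ huc)⟩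
    obtain ⟨hqk, hqa, hqc⟩ := hne q hq
    obtain ⟨hpk, hpa, hpc⟩ := hne p hp
    obtain ⟨hrk, hra, hrc⟩ := hne r hr
    have hcard : ({k, a, c, q, p, r} : Finset (Fin n)).card = 6 := by
      simp [hka, hkc, hac, hqk.symm, hqa.symm, hqc.symm, hpk.symm, hpa.symm, hpc.symm, hrk.symm,
        hra.symm, hrc.symm, hqp, hqr, hrp.symm]
    have hn : 8 ≤ n := by
      have h := Finset.card_le_univ ({k, a, c, q, p, r} : Finset (Fin n))
      rw [hcard, Fintype.card_fin] at h
      omega
    obtain ⟨d, hd, e, he, hde⟩ : ∃ d ∈ ({k, a, c, q, p, r} : Finset (Fin n))ᶜ,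
        ∃ e ∈ ({k, a, c, q, p, r} : Finset (Fin n))ᶜ, d ≠ e := by
      refine Finset.one_lt_card.mp ?_
      rw [Finset.card_compl, hcard, Fintype.card_fin]
      omega
    simp only [Finset.mem_compl, Finset.mem_insert, Finset.mem_singleton, not_or] at hd he
    obtain ⟨hdk, hda, hdc, hdq, hdp, hdr⟩ := hd
    obtain ⟨hek, hea, hec, heq, hep, her⟩ := he
    rw [tri_eq_commutator hqp hqr (Ne.symm hdq) (Ne.symm heq) hrp.symm (Ne.symm hdp) (Ne.symm hep) (Ne.symm hdr)
      (Ne.symm her) hde]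
    obtain ⟨g, hg⟩ := exists_preimage hrange
      (isThreeCycle_tri hqp (Ne.symm hdq) (Ne.symm hdp)).mem_alternatingGroup
    obtain ⟨f, hf⟩ := exists_preimage hrange
      (isThreeCycle_tri hqr (Ne.symm heq) (Ne.symm her)).mem_alternatingGroup
    refine ⟨g * f * g⁻¹ * f⁻¹, hmem.mpr ?_, by simp only [map_mul, map_inv, hg, hf]⟩
    -- commutators of elements moving `T` centrally fix it
    have hcen : ∀ y : Γ, π y k = k → π y a = a → π y c = c → T⁻¹ * (y * T * y⁻¹) ∈ Subgroup.center Γ :=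
      fun y h1 h2 h4 => hker (by
        rw [MonoidHom.mem_ker, map_mul, map_inv, map_mul, map_mul, map_inv, hT, conj_tri, h1, h2, h4,
          inv_mul_cancel])
    have hg' := hcen g (by rw [hg, tri_apply_of_ne hqk.symm hpk.symm (Ne.symm hdk)])
      (by rw [hg, tri_apply_of_ne hqa.symm hpa.symm (Ne.symm hda)])
      (by rw [hg, tri_apply_of_ne hqc.symm hpc.symm (Ne.symm hdc)])
    have hf' := hcen f (by rw [hf, tri_apply_of_ne hqk.symm hrk.symm (Ne.symm hek)])
      (by rw [hf, tri_apply_of_ne hqa.symm hra.symm (Ne.symm hea)])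
      (by rw [hf, tri_apply_of_ne hqc.symm hrc.symm (Ne.symm hec)])
    set v := T⁻¹ * (g * T * g⁻¹) with hv
    set w := T⁻¹ * (f * T * f⁻¹) with hw
    have hv' := Subgroup.mem_center_iff.mp hg'
    have hw' := Subgroup.mem_center_iff.mp hf'
    have eg : g * T * g⁻¹ = T * v := by rw [hv]; group
    have ef : f * T * f⁻¹ = T * w := by rw [hw]; group
    have eg' : g⁻¹ * T * g = T * v⁻¹ := by
      have : g⁻¹ * (T * v) * g = T := by rw [← eg]; group
      calc g⁻¹ * T * g = g⁻¹ * (T * v) * (v⁻¹ * g) := by group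
        _ = g⁻¹ * (T * v) * (g * v⁻¹) := by
          rw [Subgroup.mem_center_iff.mp ((Subgroup.center Γ).inv_mem hg') g]
        _ = T * v⁻¹ := by rw [← mul_assoc, this]
    have ef' : f⁻¹ * T * f = T * w⁻¹ := by
      have : f⁻¹ * (T * w) * f = T := by rw [← ef]; group
      calc f⁻¹ * T * f = f⁻¹ * (T * w) * (w⁻¹ * f) := by group
        _ = f⁻¹ * (T * w) * (f * w⁻¹) := by
          rw [Subgroup.mem_center_iff.mp ((Subgroup.center Γ).inv_mem hf') f]
        _ = T * w⁻¹ := by rw [← mul_assoc, this]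
    have key : (g * f * g⁻¹ * f⁻¹) * T * (g * f * g⁻¹ * f⁻¹)⁻¹ = T := by
      calc (g * f * g⁻¹ * f⁻¹) * T * (g * f * g⁻¹ * f⁻¹)⁻¹
          = g * (f * (g⁻¹ * (f⁻¹ * T * f) * g) * f⁻¹) * g⁻¹ := by group
        _ = g * (f * (g⁻¹ * T * (w⁻¹ * g)) * f⁻¹) * g⁻¹ := by rw [ef']; group
        _ = g * (f * (g⁻¹ * T * g) * (w⁻¹ * f⁻¹)) * g⁻¹ := by
          rw [← Subgroup.mem_center_iff.mp ((Subgroup.center Γ).inv_mem hf') g]; group
        _ = g * (f * T * (v⁻¹ * (f⁻¹ * w⁻¹))) * g⁻¹ := by
          rw [eg', ← Subgroup.mem_center_iff.mp ((Subgroup.center Γ).inv_mem hf') f⁻¹]; group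
        _ = g * (f * T * f⁻¹ * (v⁻¹ * w⁻¹)) * g⁻¹ := by
          rw [← mul_assoc v⁻¹ f⁻¹, ← Subgroup.mem_center_iff.mp ((Subgroup.center Γ).inv_mem hg') f⁻¹]
          group
        _ = g * T * (w * (v⁻¹ * w⁻¹) * g⁻¹) := by rw [ef]; group
        _ = g * T * (v⁻¹ * g⁻¹) := by
          rw [← mul_assoc w v⁻¹, ← hw' v⁻¹, mul_assoc v⁻¹, mul_inv_cancel, mul_one]
        _ = g * T * g⁻¹ * v⁻¹ := by
          rw [← Subgroup.mem_center_iff.mp ((Subgroup.center Γ).inv_mem hg') g⁻¹]; group
        _ = T := by rw [eg]; group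
    rwa [mul_inv_eq_iff_eq_mul] at key
  -- the powers of the cycle
  set t := tri k a c with ht
  have htD : t ∈ D := ⟨T, hmem.mpr rfl, hT⟩
  have hgalt : π x ∈ alternatingGroup (Fin n) := hrange ▸ ⟨x, rfl⟩
  suffices hxD : π x ∈ D by
    obtain ⟨z, hz, he⟩ := hxD
    exact hmem.mp (hC he.symm hz)
  have hsupp : ∀ y, y ≠ k → y ≠ a → y ≠ c → t y = y := fun y => tri_apply_of_ne
  have hk' : π x k = k ∨ π x k = a ∨ π x k = c := by
    by_contra hno
    push Not at hno
    have h1 := hsupp _ hno.1 hno.2.1 hno.2.2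
    have h2 := congrArg (fun p : Perm (Fin n) => p k) hx
    simp only [Perm.mul_apply] at h2
    rw [h1, tri_apply_first hka hac] at h2
    exact hka ((π x).injective h2).symm
  obtain ⟨g, hgD, hgk, hgt, hgalt'⟩ : ∃ g : Perm (Fin n), (g ∈ D → π x ∈ D) ∧ g k = k ∧
      g * t = t * g ∧ g ∈ alternatingGroup (Fin n) := by
    have htalt : t ∈ alternatingGroup (Fin n) := (isThreeCycle_tri hka hkc hac).mem_alternatingGroup
    rcases hk' with h | h | h
    · exact ⟨π x, id, h, hx, hgalt⟩
    · refine ⟨t⁻¹ * π x, fun hg => ?_, ?_, ?_, mul_mem (inv_mem htalt) hgalt⟩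
      · simpa using D.mul_mem htD hg
      · rw [Perm.mul_apply, h, inv_eq_iff_eq]; exact (tri_apply_first hka hac).symm
      · rw [mul_assoc, hx]; group
    · refine ⟨t * π x, fun hg => ?_, ?_, ?_, mul_mem htalt hgalt⟩
      · simpa using D.mul_mem (D.inv_mem htD) hg
      · rw [Perm.mul_apply, h]; exact tri_apply_third hkc hac
      · rw [mul_assoc, hx]
  refine hgD ?_
  have hcomm : ∀ y, g (t y) = t (g y) := fun y => congrArg (fun p : Perm (Fin n) => p y) hgt
  have hga : g a = a := by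
    have := hcomm k
    rwa [tri_apply_first hka hac, hgk, tri_apply_first hka hac] at this
  have hgc : g c = c := by
    have := hcomm a
    rwa [tri_apply_second, hga, tri_apply_second] at this
  -- even permutations fixing the three points
  let P : Fin n → Prop := fun y => y ≠ k ∧ y ≠ a ∧ y ≠ c
  have hP : ∀ y, P (g y) ↔ P y := fun y => by
    simp only [P, ← g.injective.ne_iff (x := y), hgk, hga, hgc]
  have hsub : ∀ y, g y ≠ y → P y := fun y hy =>
    ⟨fun e => hy (e ▸ hgk), fun e => hy (e ▸ hga), fun e => hy (e ▸ hgc)⟩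
  set g' : Perm {y // P y} := g.subtypePerm hP
  have hg' : ofSubtype g' = g := ofSubtype_subtypePerm hP hsub
  have hg'alt : g' ∈ alternatingGroup {y // P y} := by
    rw [mem_alternatingGroup, ← sign_ofSubtype, hg']
    exact mem_alternatingGroup.mp hgalt'
  rw [← closure_three_cycles_eq_alternating] at hg'alt
  rw [← hg']
  have hle : (Subgroup.closure {σ : Perm {y // P y} | IsThreeCycle σ}).map
      (ofSubtype : Perm {y // P y} →* Perm (Fin n)) ≤ D := by
    rw [MonoidHom.map_closure, Subgroup.closure_le]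
    rintro u ⟨σ, hσ, rfl⟩
    refine h3 _ ?_ ?_ ?_ ?_
    · exact cycleType_ofSubtype.trans hσ
    all_goals exact ofSubtype_apply_of_not_mem σ (by simp [P])
  exact hle (Subgroup.mem_map_of_mem _ hg'alt)

theorem exists_conj (h5 : 5 ≤ n) (hrange : π.range = alternatingGroup (Fin n)) {s t : Perm (Fin n)}
    (hs : IsThreeCycle s) (ht : IsThreeCycle t) : ∃ h : Γ, π h * s * (π h)⁻¹ = t := by
  obtain ⟨g, hg⟩ := isConj_iff.mp (alternatingGroup.isThreeCycle_isConj (α := Fin n)
    (by simpa using h5) (σ := ⟨s, hs.mem_alternatingGroup⟩) (τ := ⟨t, ht.mem_alternatingGroup⟩) hs ht)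
  obtain ⟨h, hh⟩ := exists_preimage hrange g.2
  exact ⟨h, by rw [hh]; exact congrArg Subtype.val hg⟩

/-- The kernel of a stem extension of the alternating group. -/
theorem ker_le_zpowers (h5 : 5 ≤ n) (h6 : n ≠ 6) (h7 : n ≠ 7)
    (hrange : π.range = alternatingGroup (Fin n)) (hker : π.ker ≤ Subgroup.center Γ) :
    ∃ b : Γ, b * b = 1 ∧ ∀ z, π z = 1 → z ∈ commutator Γ → z ∈ Subgroup.zpowers b := by
  classical
  obtain ⟨k, a, c, d, hka, hkc, hkd, hac, had, hcd⟩ : ∃ k a c d : Fin n,
      k ≠ a ∧ k ≠ c ∧ k ≠ d ∧ a ≠ c ∧ a ≠ d ∧ c ≠ d :=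
    ⟨⟨0, by omega⟩, ⟨1, by omega⟩, ⟨2, by omega⟩, ⟨3, by omega⟩, by simp, by simp, by simp, by simp,
      by simp, by simp⟩
  set t₀ := tri k a c with ht₀def
  have ht₀ : IsThreeCycle t₀ := isThreeCycle_tri hka hkc hac
  obtain ⟨T, hT⟩ := exists_preimage hrange ht₀.mem_alternatingGroup
  have huniq : ∀ {g h : Γ}, π g * t₀ * (π g)⁻¹ = π h * t₀ * (π h)⁻¹ →
      g * T * g⁻¹ = h * T * h⁻¹ := by
    intro g h he
    have h1 : π (h⁻¹ * g) * t₀ = t₀ * π (h⁻¹ * g) := by
      rw [map_mul, map_inv]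
      calc (π h)⁻¹ * π g * t₀ = (π h)⁻¹ * (π g * t₀ * (π g)⁻¹) * π g := by group
        _ = _ := by rw [he]; group
    have h2 := commute_lift h6 h7 hrange hker hka hkc hac hT h1
    calc g * T * g⁻¹ = h * (h⁻¹ * g * T) * g⁻¹ := by group
      _ = _ := by rw [h2]; group
  let l : Perm (Fin n) → Γ := fun t =>
    if ht : IsThreeCycle t then
      (exists_conj h5 hrange ht₀ ht).choose * T * (exists_conj h5 hrange ht₀ ht).choose⁻¹
    else 1
  have hl : ∀ {t}, IsThreeCycle t → ∀ {g : Γ}, π g * t₀ * (π g)⁻¹ = t → l t = g * T * g⁻¹ := by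
    intro t ht g hg
    simp only [l, dif_pos ht]
    exact huniq ((exists_conj h5 hrange ht₀ ht).choose_spec.trans hg.symm)
  have hlmap : ∀ {t}, IsThreeCycle t → π (l t) = t := by
    intro t ht
    obtain ⟨g, hg⟩ := exists_conj h5 hrange ht₀ ht
    rw [hl ht hg, map_mul, map_mul, map_inv, hT, hg]
  have hconjtc : ∀ {t}, IsThreeCycle t → ∀ p : Perm (Fin n), IsThreeCycle (p * t * p⁻¹) :=
    fun ht p => cycleType_conj.trans ht
  have hlconj : ∀ {t}, IsThreeCycle t → ∀ h : Γ, h * l t * h⁻¹ = l (π h * t * (π h)⁻¹) := by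
    intro t ht h
    obtain ⟨g, hg⟩ := exists_conj h5 hrange ht₀ ht
    rw [hl (hconjtc ht (π h)) (g := h * g) (by rw [map_mul, ← hg]; group), hl ht hg]
    group
  have hcentral : ∀ {z : Γ}, π z = 1 → ∀ g : Γ, g * z = z * g := fun hz g =>
    Subgroup.mem_center_iff.mp (hker hz) g
  set e := l t₀⁻¹ * T with he
  set f := T ^ 3 with hf
  have hπe : π e = 1 := by rw [he, map_mul, hlmap ht₀.inv, hT, inv_mul_cancel]
  have hπf : π f = 1 := by rw [hf, map_pow, hT, ← ht₀.orderOf, pow_orderOf_eq_one]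
  have hinv : ∀ {t}, IsThreeCycle t → l t⁻¹ = e * (l t)⁻¹ := by
    intro t ht
    obtain ⟨g, hg⟩ := exists_conj h5 hrange ht₀ ht
    have h1 : g * l t₀⁻¹ * g⁻¹ = l t⁻¹ := by
      rw [hlconj ht₀.inv g, ← hg]
      congr 1
    rw [← h1, hl ht hg, show l t₀⁻¹ = e * T⁻¹ by rw [he]; group, ← mul_assoc g e, hcentral hπe g]
    group
  have hcube : ∀ {t}, IsThreeCycle t → l t ^ 3 = f := by
    intro t ht
    obtain ⟨g, hg⟩ := exists_conj h5 hrange ht₀ ht
    rw [hl ht hg, conj_pow, ← hf, hcentral hπf g, mul_inv_cancel_right]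
  have hff : f * f = e ^ 3 := by
    have h1 := hcube ht₀.inv
    rw [hinv ht₀, Commute.mul_pow (hcentral hπe _).symm, inv_pow, hcube ht₀] at h1
    calc f * f = e ^ 3 * f⁻¹ * f := by rw [h1]
      _ = e ^ 3 := by group
  set w := e * f⁻¹ with hw
  have hπw : π w = 1 := by rw [hw, map_mul, map_inv, hπe, hπf]; simp
  have hef : Commute e f⁻¹ := (Commute.inv_right (hcentral hπf e))
  have hw3 : f * w ^ 3 = 1 := by
    rw [hw, hef.mul_pow, ← hff, pow_succ (f⁻¹), pow_two]
    group
  have hw2 : e * (w * w) = 1 := by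
    rw [hw]
    calc e * (e * f⁻¹ * (e * f⁻¹)) = e * (e * (f⁻¹ * e) * f⁻¹) := by group
      _ = e * (e * (e * f⁻¹) * f⁻¹) := by rw [hef.eq]
      _ = e ^ 3 * (f * f)⁻¹ := by rw [pow_succ, pow_two]; group
      _ = 1 := by rw [hff, mul_inv_cancel]
  let L : Perm (Fin n) → Γ := fun t => l t * w
  have hLmap : ∀ {t}, IsThreeCycle t → π (L t) = t := fun ht => by
    simp only [L, map_mul, hlmap ht, hπw, mul_one]
  have hLconj : ∀ {t}, IsThreeCycle t → ∀ h : Γ, h * L t * h⁻¹ = L (π h * t * (π h)⁻¹) := by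
    intro t ht h
    simp only [L]
    rw [← hlconj ht h, ← mul_assoc h, mul_assoc _ w, ← hcentral hπw h⁻¹, ← mul_assoc]
  have hLpow : ∀ {t}, IsThreeCycle t → L t ^ 3 = 1 := by
    intro t ht
    simp only [L]
    rw [Commute.mul_pow (hcentral hπw _), hcube ht, hw3]
  have hLinv : ∀ {t}, IsThreeCycle t → L t⁻¹ = (L t)⁻¹ := by
    intro t ht
    refine eq_inv_of_mul_eq_one_left ?_
    simp only [L]
    rw [hinv ht]
    calc e * (l t)⁻¹ * w * (l t * w) = e * ((l t)⁻¹ * (w * l t) * w) := by group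
      _ = e * ((l t)⁻¹ * (l t * w) * w) := by rw [← hcentral hπw (l t)]
      _ = e * (w * w) := by group
      _ = 1 := hw2
  -- the square of a product of two cycles with a common arrow
  let B : Fin n → Fin n → Fin n → Fin n → Γ := fun k a c d => (L (tri k a c) * L (tri k a d)) ^ 2
  have hπB : ∀ {k a c d : Fin n}, k ≠ a → k ≠ c → k ≠ d → a ≠ c → a ≠ d → c ≠ d → π (B k a c d) = 1 := by
    intro k a c d hka hkc hkd hac had hcd
    simp only [B]
    rw [map_pow, map_mul, hLmap (isThreeCycle_tri hka hkc hac), hLmap (isThreeCycle_tri hka hkd had)]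
    refine Equiv.ext fun y => ?_
    simp only [pow_two, Perm.mul_apply, Perm.one_apply]
    by_cases hk : y = k
    · rw [hk, tri_apply_first hka had, tri_apply_second, tri_apply_of_ne hkc.symm hac.symm hcd,
        tri_apply_third hkc hac]
    by_cases ha : y = a
    · rw [ha, tri_apply_second, tri_apply_of_ne hkd.symm had.symm hcd.symm, tri_apply_third hkd had,
        tri_apply_first hka hac]
    by_cases hc : y = c
    · rw [hc, tri_apply_of_ne hkc.symm hac.symm hcd, tri_apply_third hkc hac, tri_apply_first hka had,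
        tri_apply_second]
    by_cases hd : y = d
    · rw [hd, tri_apply_third hkd had, tri_apply_first hka hac, tri_apply_second,
        tri_apply_of_ne hkd.symm had.symm hcd.symm]
    rw [tri_apply_of_ne hk ha hd, tri_apply_of_ne hk ha hc, tri_apply_of_ne hk ha hd,
      tri_apply_of_ne hk ha hc]
  set b := B k a c d with hb
  have hBconj : ∀ {k a c d : Fin n}, k ≠ a → k ≠ c → k ≠ d → a ≠ c → a ≠ d → ∀ h : Γ,
      h * B k a c d * h⁻¹ = B (π h k) (π h a) (π h c) (π h d) := by
    intro k a c d hka hkc hkd hac had h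
    simp only [B]
    rw [← conj_pow, show h * (L (tri k a c) * L (tri k a d)) * h⁻¹ =
      (h * L (tri k a c) * h⁻¹) * (h * L (tri k a d) * h⁻¹) by group,
      hLconj (isThreeCycle_tri hka hkc hac), hLconj (isThreeCycle_tri hka hkd had), conj_tri, conj_tri]
  have hswap : B k a d c = b := by
    have h1 : L (tri k a c) * B k a d c * (L (tri k a c))⁻¹ = b := by
      rw [hb]
      simp only [B, pow_two]
      group
    rwa [hcentral (hπB hka hkd hkc had hac hcd.symm), mul_inv_cancel_right] at h1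
  have hBall : ∀ {k' a' c' d' : Fin n}, k' ≠ a' → k' ≠ c' → k' ≠ d' → a' ≠ c' → a' ≠ d' → c' ≠ d' →
      B k' a' c' d' = b := by
    intro k' a' c' d' h12 h13 h14 h23 h24 h34
    have hinj : ∀ {p q r s : Fin n}, p ≠ q → p ≠ r → p ≠ s → q ≠ r → q ≠ s → r ≠ s →
        Function.Injective ![p, q, r, s] := by
      intro p q r s h1 h2 h3 h4 h5 h6 i j hij
      fin_cases i <;> fin_cases j <;> simp_all
    obtain ⟨σ, hσ⟩ := Equiv.Perm.exists_extending_pair ![k', a', c', d'] ![k, a, c, d]
      (hinj h12 h13 h14 h23 h24 h34) (hinj hka hkc hkd hac had hcd)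
    have s0 : σ k' = k := hσ 0
    have s1 : σ a' = a := hσ 1
    have s2 : σ c' = c := hσ 2
    have s3 : σ d' = d := hσ 3
    have hstep : ∀ (h : Γ) (p q : Fin n), π h k' = k → π h a' = a → π h c' = p → π h d' = q →
        B k' a' c' d' = B k a p q := by
      intro h p q e0 e1 e2 e3
      have h1 := hBconj h12 h13 h14 h23 h24 h
      rw [hcentral (hπB h12 h13 h14 h23 h24 h34), mul_inv_cancel_right, e0, e1, e2, e3] at h1
      exact h1
    rcases Int.units_eq_one_or (Perm.sign σ) with hs | hs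
    · obtain ⟨h, hh⟩ := exists_preimage hrange (mem_alternatingGroup.mpr hs)
      exact (hstep h c d (hh ▸ s0) (hh ▸ s1) (hh ▸ s2) (hh ▸ s3)).trans hb.symm
    · obtain ⟨h, hh⟩ := exists_preimage hrange (g := swap c d * σ) (mem_alternatingGroup.mpr (by
        rw [map_mul, sign_swap hcd, hs]; rfl))
      refine (hstep h d c ?_ ?_ ?_ ?_).trans hswap <;> rw [hh, Perm.mul_apply]
      · rw [s0, swap_apply_of_ne_of_ne hkc hkd]
      · rw [s1, swap_apply_of_ne_of_ne hac had]
      · rw [s2, swap_apply_left]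
      · rw [s3, swap_apply_right]
  have hπb : π b = 1 := hπB hka hkc hkd hac had hcd
  have hb2 : b * b = 1 := by
    have h1 := hBall hka.symm had hac hkd hkc hcd.symm
    simp only [B] at h1
    have hinv1 : ∀ {y : Fin n}, y ≠ k → y ≠ a → L (tri a k y) = (L (tri k a y))⁻¹ := fun {y} hyk hya => by
      rw [← hLinv (isThreeCycle_tri hka hyk.symm hya.symm), tri_inv hka hyk.symm hya.symm,
        tri_rotate hka.symm hya.symm hyk.symm]
    rw [hinv1 hkd.symm had.symm, hinv1 hkc.symm hac.symm, ← mul_inv_rev, inv_pow] at h1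
    rw [← hb] at *
    have h2 : b⁻¹ = b := h1
    nth_rw 1 [← h2]
    exact inv_mul_cancel b
  refine ⟨b, hb2, fun z hz hzc => ?_⟩
  set W := Subgroup.zpowers b with hW
  have hWc : W ≤ Subgroup.center Γ := Subgroup.zpowers_le.mpr (hker hπb)
  haveI : W.Normal := ⟨fun x hx g => by
    rw [Subgroup.mem_center_iff.mp (hWc hx) g, mul_inv_cancel_right]; exact hx⟩
  have hWker : W ≤ π.ker := Subgroup.zpowers_le.mpr hπb
  set π' := QuotientGroup.lift W π hWker
  let q := QuotientGroup.mk' W
  have hπ' : ∀ x, π' (q x) = π x := fun x => rfl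
  let S : TriLift π' :=
    { lift := fun t => q (L t)
      map_lift := fun ht => by rw [hπ', hLmap ht]
      conj_lift := fun {t} ht h => by
        obtain ⟨g, rfl⟩ := QuotientGroup.mk'_surjective W h
        rw [← map_inv, ← map_mul, ← map_mul, hLconj ht g, hπ']
      pow_lift := fun ht => by rw [← map_pow, hLpow ht, map_one]
      inv_lift := fun ht => by rw [hLinv ht, map_inv]
      edge := fun {k a c d} hka hkc hkd hac had hcd => by
        set x := tri k a c
        set y := tri k a d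
        have hx := isThreeCycle_tri hka hkc hac
        have hy := isThreeCycle_tri hka hkd had
        have h1 : q (L x * L y) ^ 2 = 1 := by
          rw [← map_pow]
          exact (QuotientGroup.eq_one_iff _).mpr (by
            have h3 : (L x * L y) ^ 2 = b := hBall hka hkc hkd hac had hcd
            rw [h3]; exact Subgroup.mem_zpowers b)
        have h2 : q (L x) * (q (L y))⁻¹ = (q (L y))⁻¹ * (q (L x))⁻¹ * q (L y) := by
          rw [map_mul] at h1
          generalize q (L x) = X at h1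
          generalize hY : q (L y) = Y at h1
          have hY3 : Y ^ 3 = 1 := by rw [← hY, ← map_pow, hLpow hy, map_one]
          calc X * Y⁻¹ = (X * Y) ^ 2 * Y⁻¹ * X⁻¹ * (Y ^ 3)⁻¹ * Y := by
                rw [pow_two]; group
            _ = Y⁻¹ * X⁻¹ * Y := by rw [h1, hY3]; group
        rw [h2, ← map_inv, ← map_inv, ← map_mul, ← map_mul, ← hLinv hx]
        congr 1
        have h4 := hLconj hx.inv (L y)⁻¹
        rw [inv_inv, map_inv, hLmap hy, inv_inv] at h4
        rw [h4]
        congr 1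
        rw [tri_inv hka hkc hac]
        conv_lhs => rw [← inv_inv (tri k a d), tri_inv hka hkd had, inv_inv]
        rw [conj_tri, tri_apply_first hkd had.symm, tri_apply_of_ne hkc.symm hcd hac.symm,
          tri_apply_third hka had.symm]
        rw [tri_rotate hcd.symm hkd.symm hkc.symm, tri_rotate hkc.symm hcd hkd] }
  have h5' : q z = 1 := by
    refine S.ker_inf_commutator_eq_bot ?_ ?_ (by rw [hπ', hz]) ?_
    · rintro p ⟨x, rfl⟩
      obtain ⟨g, rfl⟩ := QuotientGroup.mk'_surjective W x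
      exact hrange ▸ ⟨g, (hπ' g).symm⟩
    · intro x hx
      obtain ⟨g, rfl⟩ := QuotientGroup.mk'_surjective W x
      refine Subgroup.mem_center_iff.mpr fun y => ?_
      obtain ⟨h, rfl⟩ := QuotientGroup.mk'_surjective W y
      rw [← map_mul, ← map_mul, hcentral (by rwa [MonoidHom.mem_ker, hπ'] at hx) h]
    · have : (commutator Γ).map q ≤ commutator (Γ ⧸ W) := by
        rw [commutator_def, Subgroup.map_commutator]
        exact Subgroup.commutator_mono le_top le_top
      exact this (Subgroup.mem_map_of_mem q hzc)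
  exact (QuotientGroup.eq_one_iff z).mp h5'

end Cfsg.Agent.Lib.SchurAlt
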