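import Mathlib.GroupTheory.SpecificGroups.Alternating
import Mathlib.GroupTheory.Transfer
import Mathlib.Tactic

/-!
A stem extension of the alternating group of degree four has kernel of order at most two.
-/

set_option autoImplicit false

namespace Cfsg.Agent.Lib.SchurAlt

open Equiv Equiv.Perm
open scoped commutatorElement

universe v

/-- A central element of the commutator subgroup is killed by the index of an abelian subgroup
containing it. -/
theorem pow_index_eq_one_of_central {W : Type v} [Group W] {K : Subgroup W} [K.FiniteIndex]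
    (hK : ∀ a ∈ K, ∀ b ∈ K, a * b = b * a) {z : W}
    (hzc : z ∈ Subgroup.center W) (hz : z ∈ commutator W) : z ^ K.index = 1 := by
  letI : CommGroup K :=
    { (inferInstance : Group K) with mul_comm := fun a b => Subtype.ext (hK a a.2 b b.2) }
  have key : ∀ (k : ℕ) (g₀ : W), g₀⁻¹ * z ^ k * g₀ ∈ K → g₀⁻¹ * z ^ k * g₀ = z ^ k := fun k g₀ _ => by
    rw [mul_assoc, ← Subgroup.mem_center_iff.mp ((Subgroup.center W).pow_mem hzc k) g₀]; group
  have h1 := MonoidHom.transfer_eq_pow (MonoidHom.id K) z key
  have h2 : MonoidHom.transfer (MonoidHom.id K) z = 1 := Abelianization.commutator_subset_ker _ hz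
  rw [h2] at h1
  exact (congrArg Subtype.val h1).symm

section

variable {Γ : Type v} [Group Γ] {π : Γ →* Perm (Fin 4)}

/-- The four-group. -/
def klein : Subgroup (Perm (Fin 4)) where
  carrier := {p | p = 1 ∨ p = swap 0 1 * swap 2 3 ∨ p = swap 0 2 * swap 1 3 ∨ p = swap 0 3 * swap 1 2}
  one_mem' := Or.inl rfl
  mul_mem' := by
    intro a b ha hb
    simp only [Set.mem_setOf_eq] at ha hb ⊢
    rcases ha with rfl | rfl | rfl | rfl <;> rcases hb with rfl | rfl | rfl | rfl <;> decide
  inv_mem' := by
    intro a ha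
    simp only [Set.mem_setOf_eq] at ha ⊢
    rcases ha with rfl | rfl | rfl | rfl <;> decide

theorem card_klein : Nat.card klein = 4 := by
  have h : (klein : Set (Perm (Fin 4))) =
      ↑({1, swap 0 1 * swap 2 3, swap 0 2 * swap 1 3, swap 0 3 * swap 1 2} : Finset (Perm (Fin 4))) := by
    ext p
    simp [klein]
  rw [show Nat.card klein = Nat.card (klein : Set (Perm (Fin 4))) from rfl, h, Nat.card_coe_set_eq,
    Set.ncard_coe_finset]
  decide

theorem ker_le_zpowers_four [Finite Γ] (hrange : π.range = alternatingGroup (Fin 4))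
    (hker : π.ker ≤ Subgroup.center Γ) :
    ∃ b : Γ, b * b = 1 ∧ ∀ z, π z = 1 → z ∈ commutator Γ → z ∈ Subgroup.zpowers b := by
  obtain ⟨x, hx⟩ : swap (0 : Fin 4) 1 * swap 2 3 ∈ π.range := by
    rw [hrange, mem_alternatingGroup]; decide
  obtain ⟨y, hy⟩ : swap (0 : Fin 4) 2 * swap 1 3 ∈ π.range := by
    rw [hrange, mem_alternatingGroup]; decide
  obtain ⟨u, hu⟩ : swap (0 : Fin 4) 1 * swap 1 2 ∈ π.range := by
    rw [hrange, mem_alternatingGroup]; decide
  set c := x * y * x⁻¹ * y⁻¹ with hc
  have hπc : π c = 1 := by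
    simp only [hc, map_mul, map_inv, hx, hy]; decide
  have hcz := Subgroup.mem_center_iff.mp (hker hπc)
  have hxx := Subgroup.mem_center_iff.mp (hker (show π (x * x) = 1 by
    rw [map_mul, hx]; decide))
  have hc2 : c * c = 1 := by
    have h1 : x * x * y * (x * x)⁻¹ = y := by rw [← hxx y]; group
    have h2 : x * x * y * (x * x)⁻¹ = c * c * y := by
      calc x * x * y * (x * x)⁻¹ = x * (c * y) * x⁻¹ := by rw [hc]; group
        _ = c * (x * y * x⁻¹) := by rw [← mul_assoc x c, hcz x]; group
        _ = c * c * y := by rw [hc]; group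
    rw [h1] at h2
    exact mul_eq_right.mp h2.symm
  refine ⟨c, hc2, fun z hz hzc => ?_⟩
  set N := Subgroup.zpowers c
  have hNc : N ≤ Subgroup.center Γ := Subgroup.zpowers_le.mpr (hker hπc)
  haveI : N.Normal := ⟨fun g hg h => by
    rw [Subgroup.mem_center_iff.mp (hNc hg) h, mul_inv_cancel_right]; exact hg⟩
  set π' := QuotientGroup.lift N π (Subgroup.zpowers_le.mpr hπc)
  let q := QuotientGroup.mk' N
  have hπ' : ∀ g, π' (q g) = π g := fun g => rfl
  have hrange' : π'.range = alternatingGroup (Fin 4) := by
    rw [← hrange]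
    ext p
    exact ⟨fun ⟨g, hg⟩ => by
      obtain ⟨g', rfl⟩ := QuotientGroup.mk'_surjective N g; exact ⟨g', hg⟩,
      fun ⟨g, hg⟩ => ⟨q g, hg⟩⟩
  have hker' : π'.ker ≤ Subgroup.center (Γ ⧸ N) := by
    intro g hg
    obtain ⟨g, rfl⟩ := QuotientGroup.mk'_surjective N g
    refine Subgroup.mem_center_iff.mpr fun h => ?_
    obtain ⟨h, rfl⟩ := QuotientGroup.mk'_surjective N h
    rw [← map_mul, ← map_mul, Subgroup.mem_center_iff.mp (hker hg) h]
  have hzW : q z ∈ commutator (Γ ⧸ N) := by
    have : (commutator Γ).map q ≤ commutator (Γ ⧸ N) := by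
      rw [commutator_def, Subgroup.map_commutator]
      exact Subgroup.commutator_mono le_top le_top
    exact this (Subgroup.mem_map_of_mem q hzc)
  have hzcen : q z ∈ Subgroup.center (Γ ⧸ N) := hker' hz
  -- an abelian subgroup containing the kernel
  have habel : ∀ S : Set (Γ ⧸ N), (∀ a ∈ S, ∀ b ∈ S, a * b = b * a) →
      ∀ a ∈ Subgroup.closure S ⊔ π'.ker, ∀ b ∈ Subgroup.closure S ⊔ π'.ker, a * b = b * a := by
    intro S hS
    have h1 : Subgroup.closure S ⊔ π'.ker ≤ Subgroup.centralizer (↑(Subgroup.closure S ⊔ π'.ker)) := by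
      rw [sup_le_iff]
      constructor
      · rw [Subgroup.closure_le]
        intro a ha
        rw [SetLike.mem_coe, Subgroup.mem_centralizer_iff]
        intro b hb
        have : Subgroup.closure S ⊔ π'.ker ≤ Subgroup.centralizer {a} := by
          rw [sup_le_iff, Subgroup.closure_le]
          exact ⟨fun c hc => Subgroup.mem_centralizer_singleton_iff.mpr (hS c hc a ha),
            hker'.trans (Subgroup.center_le_centralizer _)⟩
        exact Subgroup.mem_centralizer_singleton_iff.mp (this hb)
      · exact hker'.trans (Subgroup.center_le_centralizer _)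
    exact fun a ha b hb => (Subgroup.mem_centralizer_iff.mp (h1 ha) b hb).symm
  have hindex : ∀ S : Set (Γ ⧸ N), ∀ k, Nat.card (Subgroup.closure (π' '' S)) = k →
      (Subgroup.closure S ⊔ π'.ker).index * k = 12 := by
    intro S k hk
    have h1 := Subgroup.index_map (Subgroup.closure S) π'
    have h2 := Subgroup.index_mul_card ((Subgroup.closure S).map π')
    rw [h1, MonoidHom.map_closure, hk, hrange', alternatingGroup.index_eq_two,
      Nat.card_eq_fintype_card, Fintype.card_perm, Fintype.card_fin] at h2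
    simp only [Nat.factorial] at h2
    linarith
  have hA : (q z) ^ 3 = 1 := by
    have hcomm : ∀ a ∈ ({q x, q y} : Set (Γ ⧸ N)), ∀ b ∈ ({q x, q y} : Set (Γ ⧸ N)), a * b = b * a := by
      have h1 : q x * q y = q y * q x := by
        rw [← map_mul, ← map_mul]
        refine QuotientGroup.eq.mpr ?_
        rw [show (x * y)⁻¹ * (y * x) = (y * x)⁻¹ * c⁻¹ * (y * x) by rw [hc]; group]
        exact (inferInstance : N.Normal).conj_mem' _ (N.inv_mem (Subgroup.mem_zpowers c)) _
      rintro a (rfl | rfl) b (rfl | rfl) <;> first | rfl | exact h1 | exact h1.symm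
    have hcard : Nat.card (Subgroup.closure (π' '' {q x, q y})) = 4 := by
      rw [show π' '' {q x, q y} = {swap 0 1 * swap 2 3, swap 0 2 * swap 1 3} by
        rw [Set.image_pair, hπ', hπ', hx, hy]]
      suffices h : Subgroup.closure {swap 0 1 * swap 2 3, swap (0 : Fin 4) 2 * swap 1 3} = klein by
        rw [h, card_klein]
      refine le_antisymm ((Subgroup.closure_le _).mpr ?_) ?_
      · rintro p (rfl | rfl)
        · exact Or.inr (Or.inl rfl)
        · exact Or.inr (Or.inr (Or.inl rfl))
      · rintro p (rfl | rfl | rfl | rfl)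
        · exact one_mem _
        · exact Subgroup.subset_closure (Or.inl rfl)
        · exact Subgroup.subset_closure (Or.inr rfl)
        · rw [show swap (0 : Fin 4) 3 * swap 1 2 = (swap 0 1 * swap 2 3) * (swap 0 2 * swap 1 3) by decide]
          exact mul_mem (Subgroup.subset_closure (Or.inl rfl)) (Subgroup.subset_closure (Or.inr rfl))
    have h2 := hindex _ _ hcard
    have h4 := pow_index_eq_one_of_central (habel _ hcomm) hzcen hzW
    rwa [show (Subgroup.closure {q x, q y} ⊔ π'.ker).index = 3 by omega] at h4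
  have hB : (q z) ^ 4 = 1 := by
    have hcard : Nat.card (Subgroup.closure (π' '' {q u})) = 3 := by
      rw [Set.image_singleton, hπ', hu, ← Subgroup.zpowers_eq_closure, Nat.card_zpowers]
      exact orderOf_eq_prime (by decide) (by decide)
    have h2 := hindex _ _ hcard
    have h4 := pow_index_eq_one_of_central (habel ({q u} : Set (Γ ⧸ N))
      (by rintro a rfl b rfl; rfl)) hzcen hzW
    rwa [show (Subgroup.closure {q u} ⊔ π'.ker).index = 4 by omega] at h4
  have : q z = 1 := by
    rw [pow_succ, hA, one_mul] at hB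
    exact hB
  exact (QuotientGroup.eq_one_iff z).mp this

end

end Cfsg.Agent.Lib.SchurAlt
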