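import Cfsg.Agent.Lib.SchurAlt.Table
import Cfsg.Prelude.Def_KGroupFacts

/-!
A six-fold perfect central extension of the alternating groups of degree 6 and 7, as pairs of
permutations.
-/

set_option autoImplicit false

namespace Cfsg.Agent.Lib.SchurAlt

open Equiv
open scoped commutatorElement

/-- The image of `w` in a packed table. -/
def look (t w : ℕ) : Fin 285 := ⟨(t >>> (9 * w)) % 512 % 285, Nat.mod_lt _ (by norm_num)⟩

/-- The action of a generator on the 285 points. -/
def act (i : Fin 6) (w : Fin 285) : Fin 285 := look (fwd.getD i.1 0) w.1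

/-- The inverse action. -/
def act' (i : Fin 6) (w : Fin 285) : Fin 285 := look (bwd.getD i.1 0) w.1

theorem act_inverse : ∀ (i : Fin 6) (w : Fin 285), act' i (act i w) = w ∧ act i (act' i w) = w := by
  decide +kernel

/-- The permutation of the 285 points given by a generator. -/
def big (i : Fin 6) : Perm (Fin 285) :=
  ⟨act i, act' i, fun w => (act_inverse i w).1, fun w => (act_inverse i w).2⟩

/-- The 3-cycle on seven points given by a generator; the first generator is trivial. -/
def small (i : Fin 6) : Perm (Fin 7) :=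
  if i = 0 then 1 else Equiv.swap 0 ⟨i.1 + 1, by omega⟩ * Equiv.swap 0 1

/-- The generators. -/
def gen (i : Fin 6) : Perm (Fin 285) × Perm (Fin 7) := (big i, small i)

/-- The value of a word. -/
def ev (l : List (Fin 6)) : Perm (Fin 285) × Perm (Fin 7) := (l.map gen).prod

/-- The value of a word at a point, computed. -/
def evBig (l : List (Fin 6)) (w : Fin 285) : Fin 285 := l.foldr act w

/-- The value of a word at one of the seven points, computed. -/
def evSmall (l : List (Fin 6)) (w : Fin 7) : Fin 7 := l.foldr (fun i v => small i v) w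

theorem ev_append (a b : List (Fin 6)) : ev (a ++ b) = ev a * ev b := by
  simp [ev, List.map_append, List.prod_append]

theorem ev_cons (i : Fin 6) (l : List (Fin 6)) : ev (i :: l) = gen i * ev l := rfl

theorem ev_fst (l : List (Fin 6)) (w : Fin 285) : (ev l).1 w = evBig l w := by
  induction l with
  | nil => rfl
  | cons i l ih => rw [ev_cons, Prod.fst_mul, Perm.mul_apply, ih]; rfl

theorem ev_snd (l : List (Fin 6)) (w : Fin 7) : (ev l).2 w = evSmall l w := by
  induction l with
  | nil => rfl
  | cons i l ih => rw [ev_cons, Prod.snd_mul, Perm.mul_apply, ih]; rfl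

theorem ev_eq_of {a b : List (Fin 6)} (h₁ : ∀ w, evBig a w = evBig b w)
    (h₂ : ∀ w, evSmall a w = evSmall b w) : ev a = ev b :=
  Prod.ext (Equiv.ext fun w => by rw [ev_fst, ev_fst, h₁])
    (Equiv.ext fun w => by rw [ev_snd, ev_snd, h₂])

/-- The groups of the chain. -/
def lev (L : ℕ) : Subgroup (Perm (Fin 285) × Perm (Fin 7)) :=
  Subgroup.closure (gen '' {i : Fin 6 | i.1 ≤ L})

theorem gen_mem {L : ℕ} {i : Fin 6} (h : i.1 ≤ L) : gen i ∈ lev L :=
  Subgroup.subset_closure ⟨i, h, rfl⟩

theorem lev_mono {L L' : ℕ} (h : L ≤ L') : lev L ≤ lev L' :=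
  Subgroup.closure_mono (Set.image_mono fun _ hi => le_trans hi h)

theorem ev_mem {L : ℕ} {l : List (Fin 6)} (h : ∀ i ∈ l, i.1 ≤ L) : ev l ∈ lev L := by
  induction l with
  | nil => exact one_mem _
  | cons i l ih =>
    rw [ev_cons]
    exact mul_mem (gen_mem (h i (List.mem_cons_self ..))) (ih fun j hj => h j (List.mem_cons_of_mem _ hj))

/-- The transversal of a level. -/
def tword (L j : ℕ) : List (Fin 6) := ((trans.getD L []).getD j [])

/-- The right-hand side of a relation. -/
def rhs (L j i : ℕ) : List (Fin 6) × ℕ := (((rels.getD L []).getD j []).getD i ([], 0))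

/-- All checks made on a level. -/
def Good (L : ℕ) : Prop :=
  (∀ j : Fin (L + 2), ∀ k ∈ tword L j, k.1 ≤ L) ∧
  tword L (L + 1) = [] ∧
  (∀ j : Fin (L + 2), ∀ i : Fin 6, i.1 ≤ L →
    (∀ k ∈ (rhs L j i).1, k.1 ≤ L - 1) ∧ (rhs L j i).2 < L + 2 ∧
    (∀ w, evBig (tword L j ++ [i]) w = evBig ((rhs L j i).1 ++ tword L (rhs L j i).2) w) ∧
    (∀ w, evSmall (tword L j ++ [i]) w = evSmall ((rhs L j i).1 ++ tword L (rhs L j i).2) w)) ∧
  (∀ j : Fin 7, j.1 ≤ L + 1 → ∀ k : Fin 7, k.1 = L + 1 → evSmall (tword L j) j = k) ∧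
  (∀ j : Fin (L + 2), ∀ p : Fin 7, L + 1 < p.1 → evSmall (tword L j) p = p)

instance (L : ℕ) : Decidable (Good L) := by unfold Good; infer_instance

theorem good : ∀ L : Fin 5, Good (L.1 + 1) := by
  unfold Good
  decide +kernel

theorem good_of {L : ℕ} (h₁ : 1 ≤ L) (h₅ : L ≤ 5) : Good L := by
  have := good ⟨L - 1, by omega⟩
  rwa [show (L - 1) + 1 = L by omega] at this

/-- A group of the chain lies in the product of the previous one and the transversal. -/
theorem mem_product {L : ℕ} (h₁ : 1 ≤ L) (h₅ : L ≤ 5) {g : Perm (Fin 285) × Perm (Fin 7)}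
    (hg : g ∈ lev L) : ∃ h ∈ lev (L - 1), ∃ j : Fin (L + 2), g = h * ev (tword L j) := by
  obtain ⟨-, hlast, hrel, -, -⟩ := good_of h₁ h₅
  rw [lev, ← Subgroup.mem_toSubmonoid, Subgroup.closure_toSubmonoid_of_finite] at hg
  induction hg using Submonoid.closure_induction_right with
  | one =>
    refine ⟨1, one_mem _, ⟨L + 1, by omega⟩, ?_⟩
    rw [hlast]
    simp [ev]
  | mul_right x _ y hy ih =>
    obtain ⟨h, hh, j, rfl⟩ := ih
    obtain ⟨i, hi, rfl⟩ := hy
    obtain ⟨hk, hlt, hb, hs⟩ := hrel j i hi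
    refine ⟨h * ev (rhs L j i).1, mul_mem hh (ev_mem hk), ⟨_, hlt⟩, ?_⟩
    have := ev_eq_of hb hs
    rw [ev_append, ev_append] at this
    rw [mul_assoc h, mul_assoc h, ← this]
    simp [ev]

theorem card_le {L : ℕ} (h₁ : 1 ≤ L) (h₅ : L ≤ 5) :
    Nat.card (lev L) ≤ Nat.card (lev (L - 1)) * (L + 2) := by
  have key : ∀ g : lev L, ∃ p : lev (L - 1) × Fin (L + 2),
      (g : Perm (Fin 285) × Perm (Fin 7)) = p.1.1 * ev (tword L p.2) := fun g => by
    obtain ⟨h, hh, j, e⟩ := mem_product h₁ h₅ g.2
    exact ⟨(⟨h, hh⟩, j), e⟩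
  choose f hf using key
  have := Nat.card_le_card_of_injective f fun a b hab => Subtype.ext (by rw [hf a, hf b, hab])
  simpa [Nat.card_prod] using this

/-- The central element. -/
abbrev zg : Perm (Fin 285) × Perm (Fin 7) := gen 0

theorem zg_facts : ((∀ w, evBig (List.replicate 6 0) w = w) ∧ ∀ w, evSmall (List.replicate 6 0) w = w) ∧
    (∃ w, evBig (List.replicate 2 0) w ≠ w) ∧ (∃ w, evBig (List.replicate 3 0) w ≠ w) ∧
    (∀ i : Fin 6, (∀ w, evBig [0, i] w = evBig [i, 0] w) ∧ ∀ w, evSmall [0, i] w = evSmall [i, 0] w) := by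
  decide +kernel

theorem ev_replicate (n : ℕ) : ev (List.replicate n 0) = zg ^ n := by
  simp [ev, List.map_replicate, List.prod_replicate]

theorem orderOf_zg : orderOf zg = 6 := by
  obtain ⟨⟨h6, h6'⟩, ⟨a, ha⟩, ⟨b, hb⟩, -⟩ := zg_facts
  have e6 : zg ^ 6 = 1 := by
    rw [← ev_replicate]
    exact (ev_eq_of (b := []) h6 h6').trans rfl
  have hd := orderOf_dvd_of_pow_eq_one e6
  have n2 : zg ^ 2 ≠ 1 := fun h => ha (by rw [← ev_fst, ev_replicate, h]; rfl)
  have n3 : zg ^ 3 ≠ 1 := fun h => hb (by rw [← ev_fst, ev_replicate, h]; rfl)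
  have : orderOf zg ∈ Nat.divisors 6 := Nat.mem_divisors.2 ⟨hd, by norm_num⟩
  rw [show Nat.divisors 6 = {1, 2, 3, 6} by decide] at this
  simp only [Finset.mem_insert, Finset.mem_singleton] at this
  rcases this with h | h | h | h
  · exact absurd (by rw [orderOf_eq_one_iff.1 h, one_pow]) n2
  · exact absurd (h ▸ pow_orderOf_eq_one zg) n2
  · exact absurd (h ▸ pow_orderOf_eq_one zg) n3
  · exact h

theorem card_lev_zero : Nat.card (lev 0) ≤ 6 := by
  have : lev 0 = Subgroup.zpowers zg := by
    rw [lev, Subgroup.zpowers_eq_closure]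
    congr 1
    ext x
    constructor
    · rintro ⟨i, hi, rfl⟩
      rw [show i = 0 from Fin.ext (by simpa using hi)]
      exact Set.mem_singleton _
    · intro hx
      exact ⟨0, by simp, (Set.mem_singleton_iff.1 hx).symm⟩
  rw [this, Nat.card_zpowers, orderOf_zg]

theorem card_lev_four : Nat.card (lev 4) ≤ 2160 := by
  have h1 := card_le (L := 1) le_rfl (by norm_num)
  have h2 := card_le (L := 2) (by norm_num) (by norm_num)
  have h3 := card_le (L := 3) (by norm_num) (by norm_num)
  have h4 := card_le (L := 4) (by norm_num) (by norm_num)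
  have h0 := card_lev_zero
  simp only [Nat.reduceSub, Nat.reduceAdd] at h1 h2 h3 h4
  omega

theorem card_lev_five : Nat.card (lev 5) ≤ 15120 := by
  have h5 := card_le (L := 5) (by norm_num) le_rfl
  have h4 := card_lev_four
  simp only [Nat.reduceSub, Nat.reduceAdd] at h5
  omega

/-- The projection to the seven points. -/
def proj (L : ℕ) : lev L →* Perm (Fin 7) := (MonoidHom.snd _ _).comp (lev L).subtype

theorem sign_small : ∀ i : Fin 6, Perm.sign (small i) = 1 := by decide +kernel

/-- The even permutations fixing all points above `L + 1`. -/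
def evenFix (L : ℕ) : Subgroup (Perm (Fin 7)) where
  carrier := {g | Perm.sign g = 1 ∧ ∀ p : Fin 7, L + 1 < p.1 → g p = p}
  one_mem' := ⟨map_one _, fun _ _ => rfl⟩
  mul_mem' := fun {a b} ha hb => ⟨by rw [map_mul, ha.1, hb.1, one_mul], fun p hp => by
    rw [Perm.mul_apply, hb.2 p hp, ha.2 p hp]⟩
  inv_mem' := fun {a} ha => ⟨by rw [map_inv, ha.1, inv_one], fun p hp => by
    rw [Perm.inv_eq_iff_eq, ha.2 p hp]⟩

theorem small_fix : ∀ i : Fin 6, ∀ p : Fin 7, (1 < p.1 ∧ i.1 + 1 < p.1) → small i p = p := by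
  decide +kernel

theorem range_proj {L : ℕ} (h₁ : 1 ≤ L) (h₅ : L ≤ 5) : (proj L).range = evenFix L := by
  refine le_antisymm ?_ ?_
  · rw [MonoidHom.range_eq_map, proj, ← Subgroup.map_map, ← MonoidHom.range_eq_map,
      Subgroup.range_subtype, lev, MonoidHom.map_closure, Subgroup.closure_le]
    rintro _ ⟨_, ⟨i, hi, rfl⟩, rfl⟩
    refine ⟨sign_small i, fun p hp => small_fix i p ?_⟩
    simp only [Set.mem_ofPred_eq] at hi
    omega
  · have key : ∀ K : ℕ, K ≤ L → ∀ g : Perm (Fin 7), g ∈ evenFix K → ∃ x ∈ lev L, x.2 = g := by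
      intro K
      induction K with
      | zero =>
        intro _ g hg
        refine ⟨1, one_mem _, ?_⟩
        rcases hg with ⟨hs, hf⟩
        have h01 : ∀ p : Fin 7, p.1 ≤ 1 → g p = 0 ∨ g p = 1 := by
          intro p hp
          by_contra hne
          rw [not_or] at hne
          have hgt : 1 < (g p).1 := by
            have a0 : (g p).1 ≠ 0 := fun h => hne.1 (Fin.ext h)
            have a1 : (g p).1 ≠ 1 := fun h => hne.2 (Fin.ext h)
            omega
          have := g.injective (hf (g p) (by omega))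
          rw [this] at hgt
          omega
        rcases h01 0 (by simp) with h0 | h0
        · refine (Equiv.ext fun p => ?_).symm
          rcases Nat.lt_or_ge 1 p.1 with hp | hp
          · exact hf p (by omega)
          · rcases h01 p hp with h | h
            · rw [h, show p = 0 from g.injective (h.trans h0.symm)]
              rfl
            · rcases (show p = 0 ∨ p = 1 from by
                rcases Nat.lt_or_ge p.1 1 with q | q
                · exact Or.inl (Fin.ext (by simp; omega))
                · exact Or.inr (Fin.ext (by simp; omega))) with rfl | rfl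
              · rw [h0] at h; exact absurd h (by decide)
              · exact h
        · exfalso
          have hg : g = Equiv.swap 0 1 := by
            refine Equiv.ext fun p => ?_
            rcases Nat.lt_or_ge 1 p.1 with hp | hp
            · rw [hf p (by omega), Equiv.swap_apply_of_ne_of_ne] <;>
                (intro e; rw [e] at hp; simp at hp)
            · rcases (show p = 0 ∨ p = 1 from by
                rcases Nat.lt_or_ge p.1 1 with q | q
                · exact Or.inl (Fin.ext (by simp; omega))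
                · exact Or.inr (Fin.ext (by simp; omega))) with rfl | rfl
              · rw [h0, Equiv.swap_apply_left]
              · rw [Equiv.swap_apply_right]
                rcases h01 1 (by simp) with h | h
                · exact h
                · exact absurd (g.injective (h.trans h0.symm)) (by decide)
          rw [hg, Perm.sign_swap (by decide)] at hs
          exact absurd hs (by decide)
      | succ K ih =>
        intro hK g hg
        obtain ⟨hmem, -, -, hto, hfx⟩ := good_of (L := K + 1) (by omega) (by omega)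
        have hk7 : K + 2 < 7 := by omega
        set k : Fin 7 := ⟨K + 2, hk7⟩ with hkdef
        have hk : k.1 = K + 2 := rfl
        set j := g⁻¹ k with hjdef
        have hj : j.1 ≤ K + 2 := by
          by_contra h
          have h1 := hg.2 j (by omega)
          rw [hjdef, show g (g⁻¹ k) = k from g.apply_symm_apply k] at h1
          rw [hjdef, ← h1] at h
          omega
        set t := (ev (tword (K + 1) j.1)).2 with htdef
        have htj : t j = k := by rw [htdef, ev_snd]; exact hto j hj k hk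
        have htfix : ∀ p : Fin 7, K + 2 < p.1 → t p = p := fun p hp => by
          rw [htdef, ev_snd]
          exact hfx ⟨j.1, by omega⟩ p hp
        have htL : ev (tword (K + 1) j.1) ∈ lev L :=
          lev_mono hK (ev_mem fun i hi => hmem ⟨j.1, by omega⟩ i hi)
        have hts : Perm.sign t = 1 := by
          have : ∀ l : List (Fin 6), Perm.sign (ev l).2 = 1 := by
            intro l
            induction l with
            | nil => exact map_one _
            | cons i l ih' => rw [ev_cons, Prod.snd_mul, map_mul, ih', mul_one]; exact sign_small i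
          exact this _
        have hh : g * t⁻¹ ∈ evenFix K := by
          refine ⟨by rw [map_mul, map_inv, hg.1, hts]; rfl, fun p hp => ?_⟩
          rw [Perm.mul_apply]
          rcases Nat.lt_or_ge (K + 2) p.1 with h | h
          · rw [show t⁻¹ p = p by rw [Perm.inv_eq_iff_eq, htfix p h], hg.2 p (by omega)]
          · have hpk : p = k := Fin.ext (by omega)
            rw [hpk, show t⁻¹ k = j by rw [Perm.inv_eq_iff_eq, htj], hjdef, show g (g⁻¹ k) = k from g.apply_symm_apply k]
        obtain ⟨x, hx, hxe⟩ := ih (by omega) _ hh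
        exact ⟨x * ev (tword (K + 1) j.1), mul_mem hx htL, by
          rw [Prod.snd_mul, hxe, ← htdef, inv_mul_cancel_right]⟩
    intro g hg
    obtain ⟨x, hx, rfl⟩ := key L le_rfl g hg
    exact ⟨⟨x, hx⟩, rfl⟩

theorem zg_commute {L : ℕ} (g : lev L) : Commute zg (g : Perm (Fin 285) × Perm (Fin 7)) := by
  obtain ⟨g, hg⟩ := g
  have hc : ∀ i : Fin 6, zg * gen i = gen i * zg := fun i => by
    have := ev_eq_of (zg_facts.2.2.2 i).1 (zg_facts.2.2.2 i).2
    simpa [ev] using this
  induction hg using Subgroup.closure_induction with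
  | mem x hx => obtain ⟨i, -, rfl⟩ := hx; exact hc i
  | one => exact Commute.one_right _
  | mul x y _ _ a b => exact Commute.mul_right a b
  | inv x _ a => exact Commute.inv_right a

theorem comm_facts :
    ((∀ w, evBig ([1, 2, 2, 1] ++ [1, 2]) w = evBig ([0, 0, 0] ++ ([1, 2] ++ [1, 2, 2, 1])) w) ∧
      ∀ w, evSmall ([1, 2, 2, 1] ++ [1, 2]) w = evSmall ([0, 0, 0] ++ ([1, 2] ++ [1, 2, 2, 1])) w) ∧
    ((∀ w, evBig ([1] ++ [2, 3, 4, 2, 3]) w = evBig ([0, 0, 0, 0] ++ ([2, 3, 4, 2, 3] ++ [1])) w) ∧
      ∀ w, evSmall ([1] ++ [2, 3, 4, 2, 3]) w = evSmall ([0, 0, 0, 0] ++ ([2, 3, 4, 2, 3] ++ [1])) w) := by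
  decide +kernel

theorem zg_mem_commutator {L : ℕ} (h : 4 ≤ L) :
    (⟨zg, gen_mem (by simp)⟩ : lev L) ∈ commutator (lev L) := by
  obtain ⟨⟨a₁, a₂⟩, ⟨b₁, b₂⟩⟩ := comm_facts
  have ea := ev_eq_of a₁ a₂
  have eb := ev_eq_of b₁ b₂
  have hm : ∀ {l : List (Fin 6)}, (∀ i ∈ l, i.1 ≤ 4) → ev l ∈ lev L := fun hl =>
    lev_mono h (ev_mem hl)
  let p : lev L := ⟨ev [1, 2, 2, 1], hm (by decide)⟩
  let q : lev L := ⟨ev [1, 2], hm (by decide)⟩
  let r : lev L := ⟨ev [1], hm (by decide)⟩
  let s : lev L := ⟨ev [2, 3, 4, 2, 3], hm (by decide)⟩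
  have hmem : ⁅p, q⁆ * ⁅r, s⁆ ∈ commutator (lev L) :=
    mul_mem (Subgroup.commutator_mem_commutator (Subgroup.mem_top _) (Subgroup.mem_top _))
      (Subgroup.commutator_mem_commutator (Subgroup.mem_top _) (Subgroup.mem_top _))
  have h1 : ((⁅p, q⁆ : lev L) : Perm (Fin 285) × Perm (Fin 7)) = zg ^ 3 := by
    rw [← ev_replicate]
    simp only [ev_append] at ea
    change ⁅ev [1, 2, 2, 1], ev [1, 2]⁆ = ev [0, 0, 0]
    rw [commutatorElement_def, mul_inv_eq_iff_eq_mul, mul_inv_eq_iff_eq_mul, ea, mul_assoc]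
  have h2 : ((⁅r, s⁆ : lev L) : Perm (Fin 285) × Perm (Fin 7)) = zg ^ 4 := by
    rw [← ev_replicate]
    simp only [ev_append] at eb
    change ⁅ev [1], ev [2, 3, 4, 2, 3]⁆ = ev [0, 0, 0, 0]
    rw [commutatorElement_def, mul_inv_eq_iff_eq_mul, mul_inv_eq_iff_eq_mul, eb, mul_assoc]
  have heq : ⁅p, q⁆ * ⁅r, s⁆ = (⟨zg, gen_mem (by simp)⟩ : lev L) := by
    refine Subtype.ext ?_
    rw [Subgroup.coe_mul, h1, h2, ← pow_add]
    exact (pow_mod_orderOf zg 7).symm.trans (by rw [orderOf_zg]; exact pow_one _)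
  exact heq ▸ hmem

/-- The cover of the alternating group on the points `0 .. L + 1`. -/
theorem exists_cover {L : ℕ} (h₄ : 4 ≤ L) (h₅ : L ≤ 5) {Q : Type} [Group Q] [Finite Q]
    (ι : Q →* Perm (Fin 7)) (hι : Function.Injective ι) (hr : ι.range = evenFix L)
    (hcard : Nat.card (lev L) ≤ 6 * Nat.card Q) :
    ∃ σ : lev L →* Q, Cfsg.IsStemExtension σ ∧ Nonempty (σ.ker ≃* Multiplicative (ZMod 6)) := by
  have hrange : (proj L).range = ι.range := (range_proj (by omega) h₅).trans hr.symm
  let σ : lev L →* Q := ((MonoidHom.ofInjective hι).symm.toMonoidHom.comp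
    ((MulEquiv.subgroupCongr hrange).toMonoidHom.comp (proj L).rangeRestrict))
  have hsurj : Function.Surjective σ :=
    (MonoidHom.ofInjective hι).symm.surjective.comp
      ((MulEquiv.subgroupCongr hrange).surjective.comp (proj L).rangeRestrict_surjective)
  let z : lev L := ⟨zg, gen_mem (by simp)⟩
  have hz6 : orderOf z = 6 := by
    rw [← Subgroup.orderOf_coe]; exact orderOf_zg
  have hzker : z ∈ σ.ker := by
    have h1 : (proj L).rangeRestrict z = 1 := Subtype.ext (show small 0 = 1 from if_pos rfl)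
    rw [MonoidHom.mem_ker]
    simp [σ, h1]
  have hle : Nat.card σ.ker ≤ 6 := by
    have h1 := σ.ker.card_mul_index
    rw [Subgroup.index_ker, MonoidHom.range_eq_top.2 hsurj, Subgroup.card_top] at h1
    have hq : 0 < Nat.card Q := Nat.card_pos
    by_contra hgt
    have : 7 * Nat.card Q ≤ Nat.card σ.ker * Nat.card Q := Nat.mul_le_mul_right _ (by omega)
    omega
  have hker : σ.ker = Subgroup.zpowers z := by
    symm
    refine Subgroup.eq_of_le_of_card_ge (Subgroup.zpowers_le.2 hzker) ?_
    rw [Nat.card_zpowers, hz6]; exact hle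
  have hzc : z ∈ Subgroup.center (lev L) :=
    Subgroup.mem_center_iff.2 fun g => Subtype.ext (zg_commute g).eq.symm
  refine ⟨σ, ⟨hsurj, ?_, ?_⟩, ?_⟩
  · rw [hker, Subgroup.zpowers_le]; exact hzc
  · rw [hker, Subgroup.zpowers_le]; exact zg_mem_commutator h₄
  · haveI : IsCyclic σ.ker := by
      rw [hker]; infer_instance
    refine ⟨mulEquivOfCyclicCardEq ?_⟩
    rw [hker, Nat.card_zpowers, hz6]
    simp [Nat.card_eq_fintype_card]

end Cfsg.Agent.Lib.SchurAlt
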