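import Cfsg.Agent.Lib.SchurAlt.Cover
import Cfsg.Agent.Lib.SchurMult.CyclicBound
import Cfsg.Agent.S3951
import Cfsg.Agent.S3965

/-!
The alternating groups of degree 6 and 7 have multiplier cyclic of order six.
-/

set_option autoImplicit false

namespace Cfsg.Agent.Lib.SchurAlt

open Equiv SchurMult

/-- The six points inside the seven. -/
def sixEquiv : Fin 6 ≃ {x : Fin 7 // x.1 < 6} where
  toFun i := ⟨⟨i.1, by omega⟩, i.2⟩
  invFun x := ⟨x.1.1, x.2⟩
  left_inv _ := rfl
  right_inv _ := rfl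

/-- Permutations of six points as permutations of seven. -/
def six : Perm (Fin 6) →* Perm (Fin 7) :=
  (Perm.ofSubtype (p := fun x : Fin 7 => x.1 < 6)).comp sixEquiv.permCongrHom.toMonoidHom

theorem six_injective : Function.Injective six :=
  Perm.ofSubtype_injective.comp sixEquiv.permCongrHom.injective

theorem sign_six (g : Perm (Fin 6)) : Perm.sign (six g) = Perm.sign g := by
  simp [six, Perm.sign_ofSubtype, Equiv.permCongrHom, Perm.sign_permCongr]

/-- The embedding of the alternating group of degree six. -/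
def altSix : alternatingGroup (Fin 6) →* Perm (Fin 7) := six.comp (Subgroup.subtype _)

theorem range_altSix : altSix.range = evenFix 4 := by
  ext g
  constructor
  · rintro ⟨h, rfl⟩
    refine ⟨(sign_six _).trans h.2, fun p hp => ?_⟩
    exact Perm.ofSubtype_apply_of_not_mem _ (show ¬ p.1 < 6 by omega)
  · rintro ⟨hs, hf⟩
    have h6 : ∀ x : Fin 7, (g x).1 < 6 ↔ x.1 < 6 := by
      intro x
      constructor
      · intro h
        by_contra hx
        rw [hf x (by omega)] at h
        omega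
      · intro h
        by_contra hx
        have h1 := g.injective (hf (g x) (by omega))
        rw [h1] at hx
        omega
    have hg : six (sixEquiv.permCongrHom.symm (g.subtypePerm h6)) = g := by
      rw [six, MonoidHom.comp_apply, MulEquiv.coe_toMonoidHom, MulEquiv.apply_symm_apply]
      refine Perm.ofSubtype_subtypePerm h6 fun x hx => ?_
      by_contra h
      exact hx (hf x (by omega))
    refine ⟨⟨sixEquiv.permCongrHom.symm (g.subtypePerm h6), ?_⟩, hg⟩
    rw [Perm.mem_alternatingGroup, ← sign_six, hg, hs]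

theorem range_altSeven : (alternatingGroup (Fin 7)).subtype.range = evenFix 5 := by
  ext g
  rw [Subgroup.range_subtype, Perm.mem_alternatingGroup]
  exact ⟨fun h => ⟨h, fun p hp => absurd p.2 (by omega)⟩, fun h => h.1⟩

theorem card_alt {n : ℕ} (hn : n = 6 ∨ n = 7) :
    Nat.card (alternatingGroup (Fin n)) = if n = 6 then 360 else 2520 := by
  haveI : Nontrivial (Fin n) := Fin.nontrivial_iff_two_le.2 (by omega)
  have h := two_mul_nat_card_alternatingGroup (α := Fin n)
  rw [Nat.card_perm, Nat.card_eq_fintype_card (α := Fin n), Fintype.card_fin] at h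
  rcases hn with rfl | rfl <;> norm_num [Nat.factorial] at h ⊢ <;> omega

/-- The rotation of order four. -/
def rot (n : ℕ) (hn : 6 ≤ n) : Perm (Fin n) :=
  Equiv.swap ⟨0, by omega⟩ ⟨1, by omega⟩ * Equiv.swap ⟨1, by omega⟩ ⟨2, by omega⟩ *
    Equiv.swap ⟨2, by omega⟩ ⟨3, by omega⟩ * Equiv.swap ⟨4, by omega⟩ ⟨5, by omega⟩

/-- The reflection. -/
def refl' (n : ℕ) (hn : 6 ≤ n) : Perm (Fin n) :=
  Equiv.swap ⟨0, by omega⟩ ⟨2, by omega⟩ * Equiv.swap ⟨4, by omega⟩ ⟨5, by omega⟩

/-- A 3-cycle. -/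
def cycA (n : ℕ) (hn : 6 ≤ n) : Perm (Fin n) :=
  Equiv.swap ⟨0, by omega⟩ ⟨1, by omega⟩ * Equiv.swap ⟨1, by omega⟩ ⟨2, by omega⟩

/-- A disjoint 3-cycle. -/
def cycB (n : ℕ) (hn : 6 ≤ n) : Perm (Fin n) :=
  Equiv.swap ⟨3, by omega⟩ ⟨4, by omega⟩ * Equiv.swap ⟨4, by omega⟩ ⟨5, by omega⟩

/-- The map of the dihedral group of order eight. -/
def dih (n : ℕ) (hn : 6 ≤ n) : DihedralGroup 4 → Perm (Fin n)
  | .r i => rot n hn ^ i.val
  | .sr i => refl' n hn * rot n hn ^ i.val

/-- The map of the group of order nine. -/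
def nine (n : ℕ) (hn : 6 ≤ n) (x : Multiplicative (ZMod 3 × ZMod 3)) : Perm (Fin n) :=
  cycA n hn ^ (Multiplicative.toAdd x).1.val * cycB n hn ^ (Multiplicative.toAdd x).2.val

/-- Computing a multiplicity. -/
theorem fact_eq {N p k : ℕ} (hp : p.Prime) (hN : N ≠ 0) (h₁ : p ^ k ∣ N) (h₂ : ¬ p ^ (k + 1) ∣ N) :
    N.factorization p = k := by
  have a := (hp.pow_dvd_iff_le_factorization hN).1 h₁
  have b : ¬ k + 1 ≤ N.factorization p := fun h => h₂ ((hp.pow_dvd_iff_le_factorization hN).2 h)
  omega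

theorem dih_facts : ∀ n : Fin 2,
    (∀ a b, dih (n.1 + 6) (by omega) (a * b) = dih (n.1 + 6) (by omega) a * dih (n.1 + 6) (by omega) b) ∧
    (∀ a, dih (n.1 + 6) (by omega) a = 1 → a = 1) ∧
    (∀ a, Perm.sign (dih (n.1 + 6) (by omega) a) = 1) := by
  decide +kernel

theorem nine_facts : ∀ n : Fin 2,
    (∀ a b, nine (n.1 + 6) (by omega) (a * b) = nine (n.1 + 6) (by omega) a * nine (n.1 + 6) (by omega) b) ∧
    (∀ a, nine (n.1 + 6) (by omega) a = 1 → a = 1) ∧
    (∀ a, Perm.sign (nine (n.1 + 6) (by omega) a) = 1) := by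
  decide +kernel

/-- A subgroup of Sylow order gives the isomorphism type of all Sylow subgroups. -/
theorem sylow_equiv_of_hom {G H : Type*} [Group G] [Finite G] [Group H] (f : H →* G)
    (hf : Function.Injective f) {p : ℕ} [Fact p.Prime]
    (hc : Nat.card H = p ^ (Nat.card G).factorization p) (P : Sylow p G) :
    Nonempty ((P : Subgroup G) ≃* H) := by
  have hr : Nat.card f.range = p ^ (Nat.card G).factorization p := by
    rw [← hc]; exact (Nat.card_congr (MonoidHom.ofInjective hf).toEquiv).symm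
  exact ⟨(P.equiv (Sylow.ofCard f.range hr)).trans
    ((MulEquiv.subgroupCongr (Sylow.coe_ofCard f.range hr)).trans (MonoidHom.ofInjective hf).symm)⟩

theorem bound {n : ℕ} (hn : n = 6 ∨ n = 7) (Δ : Type) [Group Δ] [Finite Δ]
    (τ : Δ →* alternatingGroup (Fin n)) (hτ : Cfsg.IsStemExtension τ) : Nat.card τ.ker ∣ 6 := by
  classical
  refine (Nat.dvd_iff_prime_pow_dvd_dvd _ _).2 fun p k hp hk => ?_
  haveI := Fact.mk hp
  refine SchurMult.pow_dvd_of_sylow hτ hk fun P E _ _ π hπ => ?_
  have hfac : Nat.card (P : Subgroup (alternatingGroup (Fin n))) =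
      p ^ (Nat.card (alternatingGroup (Fin n))).factorization p := P.card_eq_multiplicity
  obtain ⟨m, rfl⟩ : ∃ m : Fin 2, n = m.1 + 6 := by
    rcases hn with rfl | rfl
    · exact ⟨0, rfl⟩
    · exact ⟨1, rfl⟩
  have hcases : Nat.card (alternatingGroup (Fin (m.1 + 6))) = 2 ^ 3 * 3 ^ 2 * 5 ∨
      Nat.card (alternatingGroup (Fin (m.1 + 6))) = 2 ^ 3 * 3 ^ 2 * 5 * 7 := by
    rw [card_alt hn]
    rcases hn with h | h <;> simp [h]
  by_cases h2 : p = 2
  · subst h2
    have e : (Nat.card (alternatingGroup (Fin (m.1 + 6)))).factorization 2 = 3 := by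
      rcases hcases with h | h <;> rw [h] <;>
        exact fact_eq Nat.prime_two (by norm_num) (by norm_num) (by norm_num)
    obtain ⟨h₁, h₂, h₃⟩ := dih_facts m
    let f : DihedralGroup 4 →* alternatingGroup (Fin (m.1 + 6)) :=
      (MonoidHom.mk' (dih (m.1 + 6) (by omega)) h₁).codRestrict _ h₃
    obtain ⟨g⟩ := sylow_equiv_of_hom f ((injective_iff_map_eq_one f).2 fun a ha =>
      h₂ a (congrArg Subtype.val ha)) (by rw [e, DihedralGroup.nat_card]; rfl) P
    exact (SchurMult.card_ker_dvd_of_equiv g (Cfsg.Agent.S3965.result 4 ⟨2, rfl⟩) hπ).trans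
      (by norm_num)
  by_cases h3 : p = 3
  · subst h3
    have e : (Nat.card (alternatingGroup (Fin (m.1 + 6)))).factorization 3 = 2 := by
      rcases hcases with h | h <;> rw [h] <;>
        exact fact_eq Nat.prime_three (by norm_num) (by norm_num) (by norm_num)
    obtain ⟨h₁, h₂, h₃⟩ := nine_facts m
    let f : Multiplicative (ZMod 3 × ZMod 3) →* alternatingGroup (Fin (m.1 + 6)) :=
      (MonoidHom.mk' (nine (m.1 + 6) (by omega)) h₁).codRestrict _ h₃
    obtain ⟨g⟩ := sylow_equiv_of_hom f ((injective_iff_map_eq_one f).2 fun a ha =>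
      h₂ a (congrArg Subtype.val ha))
      (by rw [e, Nat.card_congr Multiplicative.toAdd, Nat.card_prod, Nat.card_zmod]; rfl) P
    exact (SchurMult.card_ker_dvd_of_equiv g (Cfsg.Agent.S3951.result 3 3 dvd_rfl) hπ).trans
      (by norm_num)
  haveI : IsCyclic (P : Subgroup (alternatingGroup (Fin (m.1 + 6)))) := by
    rcases Nat.lt_or_ge ((Nat.card (alternatingGroup (Fin (m.1 + 6)))).factorization p) 1 with h | h
    · rw [Nat.lt_one_iff.1 h, pow_zero] at hfac
      haveI := (Nat.card_eq_one_iff_unique.1 hfac).1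
      infer_instance
    · refine isCyclic_of_prime_card (p := p) ?_
      rw [hfac]
      suffices (Nat.card (alternatingGroup (Fin (m.1 + 6)))).factorization p ≤ 1 by
        rw [show (Nat.card (alternatingGroup (Fin (m.1 + 6)))).factorization p = 1 by omega, pow_one]
      by_contra hgt
      have hd : p ^ 2 ∣ Nat.card (alternatingGroup (Fin (m.1 + 6))) :=
        (hp.pow_dvd_iff_le_factorization Nat.card_pos.ne').2 (by omega)
      have hd' : p ^ 2 ∣ (2 ^ 3 * 3 ^ 2) * (5 * 7) := by
        rcases hcases with h | h <;> rw [h] at hd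
        · exact hd.trans ⟨7, by norm_num⟩
        · exact hd.trans ⟨1, by norm_num⟩
      have hco : Nat.Coprime (p ^ 2) (2 ^ 3 * 3 ^ 2) :=
        ((Nat.coprime_primes hp Nat.prime_two).2 h2).pow 2 3 |>.mul_right
          (((Nat.coprime_primes hp Nat.prime_three).2 h3).pow 2 2)
      have h35 := hco.dvd_of_dvd_mul_left hd'
      have : p ^ 2 ≤ 35 := Nat.le_of_dvd (by norm_num) h35
      have hp5 : p ≤ 5 := by nlinarith
      interval_cases p <;> norm_num at *
  exact SchurMult.card_ker_dvd_of_isCyclic hπ 6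

/-- The multiplier of the alternating groups of degree 6 and 7. -/
theorem hasMultiplier {n : ℕ} (hn : n = 6 ∨ n = 7) :
    Cfsg.HasCyclicSchurMultiplier (alternatingGroup (Fin n)) 6 := by
  rcases hn with rfl | rfl
  · obtain ⟨σ, hσ, ⟨e⟩⟩ := exists_cover (L := 4) le_rfl (by norm_num) altSix
      (six_injective.comp Subtype.val_injective) range_altSix
      (by rw [card_alt (Or.inl rfl)]; exact card_lev_four)
    exact SchurMult.hasCyclic_of_cover σ (MulEquiv.refl _) hσ (by decide +kernel)
      (by rw [Nat.card_congr e.toEquiv, Nat.card_congr Multiplicative.toAdd, Nat.card_zmod])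
      (bound (Or.inl rfl))
  · obtain ⟨σ, hσ, ⟨e⟩⟩ := exists_cover (L := 5) (by norm_num) le_rfl
      (alternatingGroup (Fin 7)).subtype Subtype.val_injective range_altSeven
      (by rw [card_alt (Or.inr rfl)]; exact card_lev_five)
    exact SchurMult.hasCyclic_of_cover σ (MulEquiv.refl _) hσ (by decide +kernel)
      (by rw [Nat.card_congr e.toEquiv, Nat.card_congr Multiplicative.toAdd, Nat.card_zmod])
      (bound (Or.inr rfl))

end Cfsg.Agent.Lib.SchurAlt
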